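import Mathlib
import Cfsg.Agent.Lib.Helper60.OFM.Syl4Defs

/-!
# OFM (S5978), cut of `[SYL4]`: leaf `[PINV]`

If `x ^ r = 1`, `r ≠ 0` in `F`, and `g` commutes with `x` on the `x`- and `g`-invariant
subspace `W`, then `g` stabilizes `W ⊓ fixSp x` and `W ⊓ movSp x`.  With
`S = ∑ k < r, x ^ k`: `movSp x = ker S`.
-/

set_option autoImplicit false

namespace Cfsg.Agent.Lib.Helper92.OFM

open Matrix Cfsg.Agent.Lib.Helper23.OHyp Cfsg.Agent.Lib.Helper60.OFM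

universe u

section

variable {F : Type u} [Field F] {ι : Type} [Fintype ι] [DecidableEq ι]

theorem mem_fixSp_iff' (x : Matrix ι ι F) (v : ι → F) : v ∈ fixSp x ↔ x *ᵥ v = v := by
  unfold fixSp
  rw [LinearMap.mem_ker, LinearMap.sub_apply, Matrix.toLin'_apply, Module.End.one_apply,
    sub_eq_zero]

theorem mem_movSp_iff' (x : Matrix ι ι F) (v : ι → F) :
    v ∈ movSp x ↔ ∃ y, (x - 1) *ᵥ y = v := by
  unfold movSp
  rw [LinearMap.mem_range]
  constructor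
  · rintro ⟨y, hy⟩
    refine ⟨y, ?_⟩
    rw [Matrix.sub_mulVec, Matrix.one_mulVec, ← hy, LinearMap.sub_apply, Matrix.toLin'_apply,
      Module.End.one_apply]
  · rintro ⟨y, hy⟩
    refine ⟨y, ?_⟩
    rw [← hy, Matrix.sub_mulVec, Matrix.one_mulVec, LinearMap.sub_apply, Matrix.toLin'_apply,
      Module.End.one_apply]

/-- `movSp x` is the kernel of `1 + x + ⋯ + x ^ (r - 1)` when `x ^ r = 1` and `r ≠ 0` in `F`. -/
theorem mem_movSp_iff_geom (r : ℕ) (x : Matrix ι ι F) (hr : (r : F) ≠ 0) (hx : x ^ r = 1)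
    (v : ι → F) : v ∈ movSp x ↔ (∑ k ∈ Finset.range r, x ^ k) *ᵥ v = 0 := by
  rw [mem_movSp_iff']
  constructor
  · rintro ⟨y, rfl⟩
    rw [Matrix.mulVec_mulVec, geom_sum_mul, hx, sub_self, Matrix.zero_mulVec]
  · intro h
    -- `S = r • 1 + (x - 1) * T`
    have hS : (∑ k ∈ Finset.range r, x ^ k) = (r : F) • (1 : Matrix ι ι F) +
        (x - 1) * ∑ k ∈ Finset.range r, ∑ j ∈ Finset.range k, x ^ j := by
      rw [Finset.mul_sum]
      have h1 : ∀ k ∈ Finset.range r, (x - 1) * ∑ j ∈ Finset.range k, x ^ j = x ^ k - 1 :=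
        fun k _ => mul_geom_sum x k
      rw [Finset.sum_congr rfl h1, Finset.sum_sub_distrib, Finset.sum_const, Finset.card_range,
        ← Nat.cast_smul_eq_nsmul F]
      abel
    rw [hS, Matrix.add_mulVec, Matrix.smul_mulVec, Matrix.one_mulVec, ← Matrix.mulVec_mulVec]
      at h
    refine ⟨(-(r : F)⁻¹) • ((∑ k ∈ Finset.range r, ∑ j ∈ Finset.range k, x ^ j) *ᵥ v), ?_⟩
    rw [Matrix.mulVec_smul]
    have h3 : (x - 1) *ᵥ ((∑ k ∈ Finset.range r, ∑ j ∈ Finset.range k, x ^ j) *ᵥ v) =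
        -((r : F) • v) := by
      rw [eq_neg_iff_add_eq_zero, add_comm]
      exact h
    rw [h3, smul_neg, neg_smul, neg_neg, smul_smul, inv_mul_cancel₀ hr, one_smul]

/-- **[PINV]** -/
theorem pkgPInv : PkgPInv.{u} := by
  intro F _ ι _ _ r x hr hx W hxW g hgW hcomm
  have hpow : ∀ k : ℕ, ∀ w ∈ W, (x ^ k) *ᵥ w ∈ W ∧ g *ᵥ ((x ^ k) *ᵥ w) = (x ^ k) *ᵥ (g *ᵥ w) := by
    intro k
    induction k with
    | zero =>
      intro w hw
      rw [pow_zero, Matrix.one_mulVec, Matrix.one_mulVec]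
      exact ⟨hw, rfl⟩
    | succ k ih =>
      intro w hw
      rw [pow_succ, ← Matrix.mulVec_mulVec, ← Matrix.mulVec_mulVec]
      refine ⟨(ih _ (hxW w hw)).1, ?_⟩
      rw [(ih _ (hxW w hw)).2, hcomm w hw]
  refine ⟨?_, ?_⟩
  · intro w hw
    obtain ⟨hwW, hwf⟩ := Submodule.mem_inf.mp hw
    refine Submodule.mem_inf.mpr ⟨hgW w hwW, ?_⟩
    rw [mem_fixSp_iff'] at hwf ⊢
    rw [← hcomm w hwW, hwf]
  · intro w hw
    obtain ⟨hwW, hwm⟩ := Submodule.mem_inf.mp hw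
    refine Submodule.mem_inf.mpr ⟨hgW w hwW, ?_⟩
    rw [mem_movSp_iff_geom r x hr hx] at hwm ⊢
    rw [Matrix.sum_mulVec] at hwm ⊢
    have h1 : ∀ k ∈ Finset.range r, (x ^ k) *ᵥ (g *ᵥ w) = g *ᵥ ((x ^ k) *ᵥ w) :=
      fun k _ => ((hpow k w hwW).2).symm
    rw [Finset.sum_congr rfl h1, ← Matrix.mulVec_sum, hwm, Matrix.mulVec_zero]

end

end Cfsg.Agent.Lib.Helper92.OFM
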