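import Mathlib
import Cfsg.Agent.Lib.Helper74.OFM.Defs
import Cfsg.Agent.Lib.Helper11.OFX.Frame

/-!
# OFM (S5978): package `[PEEL]`

A `K`-orthogonal frame for a self-adjoint `α` with `α² = a` (a non-square) on a nondegenerate
quadratic space of dimension `2 d` with a totally singular subspace of dimension `≥ d - 1`:
helper11's `exists_frame` gives `d - 1` frame vectors; the last one is a non-isotropic vector of
the orthogonal complement of the span of the `u j`, `α (u j)`.
-/

set_option autoImplicit false

namespace Cfsg.Agent.Lib.Helper92.OFM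

open Matrix Cfsg.Agent.Lib.Helper74.OFM

universe u

theorem two_ne_zero_of_odd_card' {F : Type u} [Field F] [Fintype F]
    (hF : Odd (Fintype.card F)) : (2 : F) ≠ 0 := by
  intro h2
  have hc : ringChar F = 2 := CharP.ringChar_of_prime_eq_zero Nat.prime_two h2
  have := (FiniteField.even_card_iff_char_two (F := F)).mp hc
  rcases hF with ⟨k, hk⟩
  omega

theorem exists_qf_of_geo {ι : Type} {F : Type u} [Field F] {Q : (ι → F) → F}
    (hQ : Cfsg.Geo.IsNondegenerateQuadraticForm Q) :
    ∃ Q' : QuadraticForm F (ι → F), ⇑Q' = Q ∧ (QuadraticMap.polarBilin Q').Nondegenerate := by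
  refine ⟨QuadraticMap.ofPolar Q (fun a x => by rw [hQ.smul, smul_eq_mul, pow_two])
    (fun x x' y => hQ.polar_bilinear.add_left x x' y)
    (fun a x y => by rw [hQ.polar_bilinear.smul_left, smul_eq_mul]), rfl, ?_, ?_⟩
  · intro x hx
    by_contra hx0
    obtain ⟨y, hy⟩ := (hQ.nondegenerate x hx0).2
    exact hy (hx y)
  · intro y hy
    by_contra hy0
    obtain ⟨x, hx⟩ := (hQ.nondegenerate y hy0).1
    exact hx (hy x)

/-- The last frame vector: a vector `w` orthogonal to all `u j`, `A (u j)` with `B w w ≠ 0`. -/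
theorem exists_last {F : Type u} [Field F] [Fintype F] {V : Type u} [AddCommGroup V] [Module F V]
    [FiniteDimensional F V] (B : LinearMap.BilinForm F V) (hsym : ∀ v w, B v w = B w v)
    (hnd : ∀ v, (∀ w, B v w = 0) → v = 0) (h2 : (2 : F) ≠ 0) (a : F)
    (A : V →ₗ[F] V) (hA : ∀ v, A (A v) = a • v) (hsa : ∀ u v, B (A u) v = B u (A v))
    (k : ℕ) (hdim : 2 * k < Module.finrank F V) (u : Fin k → V)
    (hu1 : ∀ j l, B (u j) (u l) = 0)
    (hu2 : ∀ j l, B (A (u j)) (u l) = if j = l then 1 else 0) :
    ∃ w : V, (∀ j, B w (u j) = 0 ∧ B w (A (u j)) = 0) ∧ B w w ≠ 0 := by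
  classical
  -- a nonzero vector of the complement
  let L : V →ₗ[F] (Fin k ⊕ Fin k → F) :=
    LinearMap.pi (Sum.elim (fun j => B.flip (u j)) (fun j => B.flip (A (u j))))
  have hLlt : Module.finrank F (Fin k ⊕ Fin k → F) < Module.finrank F V := by
    rw [Module.finrank_pi, Fintype.card_sum, Fintype.card_fin]
    omega
  have hker : LinearMap.ker L ≠ ⊥ := LinearMap.ker_ne_bot_of_finrank_lt hLlt
  obtain ⟨w0, hw0L, hw0⟩ := (Submodule.ne_bot_iff _).mp hker
  have hw0c : ∀ j, B w0 (u j) = 0 ∧ B w0 (A (u j)) = 0 := by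
    intro j
    have hL : L w0 = 0 := hw0L
    constructor
    · have := congrFun hL (Sum.inl j)
      simpa [L] using this
    · have := congrFun hL (Sum.inr j)
      simpa [L] using this
  -- the projection to the complement
  have hproj : ∀ v : V, ∃ v' s : V, v = s + v' ∧ (∀ j, B v' (u j) = 0 ∧ B v' (A (u j)) = 0) ∧
      (∀ w : V, (∀ j, B w (u j) = 0 ∧ B w (A (u j)) = 0) → B w s = 0) := by
    intro v
    refine ⟨v - (∑ j, B v (A (u j)) • u j + ∑ j, B v (u j) • A (u j)),
      ∑ j, B v (A (u j)) • u j + ∑ j, B v (u j) • A (u j), by abel, ?_, ?_⟩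
    · intro l
      constructor
      · rw [map_sub, LinearMap.sub_apply, map_add, LinearMap.add_apply, map_sum, map_sum,
          LinearMap.sum_apply, LinearMap.sum_apply]
        have h1 : ∑ j, B (B v (A (u j)) • u j) (u l) = 0 := by
          apply Finset.sum_eq_zero
          intro j _
          rw [map_smul, LinearMap.smul_apply, hu1, smul_zero]
        have h2' : ∑ j, B (B v (u j) • A (u j)) (u l) = B v (u l) := by
          rw [Finset.sum_eq_single l]
          · rw [map_smul, LinearMap.smul_apply, hu2, if_pos rfl, smul_eq_mul, mul_one]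
          · intro j _ hjl
            rw [map_smul, LinearMap.smul_apply, hu2, if_neg hjl, smul_zero]
          · intro hl
            exact absurd (Finset.mem_univ l) hl
        rw [h1, h2']
        ring
      · rw [map_sub, LinearMap.sub_apply, map_add, LinearMap.add_apply, map_sum, map_sum,
          LinearMap.sum_apply, LinearMap.sum_apply]
        have h1 : ∑ j, B (B v (A (u j)) • u j) (A (u l)) = B v (A (u l)) := by
          rw [Finset.sum_eq_single l]
          · rw [map_smul, LinearMap.smul_apply, hsym (u l) (A (u l)), hu2, if_pos rfl,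
              smul_eq_mul, mul_one]
          · intro j _ hjl
            rw [map_smul, LinearMap.smul_apply, hsym (u j) (A (u l)), hu2,
              if_neg (Ne.symm hjl), smul_zero]
          · intro hl
            exact absurd (Finset.mem_univ l) hl
        have h2' : ∑ j, B (B v (u j) • A (u j)) (A (u l)) = 0 := by
          apply Finset.sum_eq_zero
          intro j _
          rw [map_smul, LinearMap.smul_apply, hsa, hA, map_smul, hu1, smul_zero, smul_zero]
        rw [h1, h2']
        ring
    · intro w hw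
      rw [map_add, map_sum, map_sum]
      have h1 : ∑ j, B w (B v (A (u j)) • u j) = 0 := by
        apply Finset.sum_eq_zero
        intro j _
        rw [map_smul, (hw j).1, smul_zero]
      have h2' : ∑ j, B w (B v (u j) • A (u j)) = 0 := by
        apply Finset.sum_eq_zero
        intro j _
        rw [map_smul, (hw j).2, smul_zero]
      rw [h1, h2', add_zero]
  by_contra hcon
  push Not at hcon
  -- `B` vanishes on the complement
  have hvan : ∀ w w' : V, (∀ j, B w (u j) = 0 ∧ B w (A (u j)) = 0) →
      (∀ j, B w' (u j) = 0 ∧ B w' (A (u j)) = 0) → B w w' = 0 := by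
    intro w w' hw hw'
    have hs : ∀ j, B (w + w') (u j) = 0 ∧ B (w + w') (A (u j)) = 0 := by
      intro j
      rw [map_add, LinearMap.add_apply, LinearMap.add_apply, (hw j).1, (hw j).2, (hw' j).1,
        (hw' j).2, add_zero]
      exact ⟨rfl, rfl⟩
    have h1 := hcon (w + w') hs
    simp only [map_add, LinearMap.add_apply] at h1
    rw [hcon w hw, hcon w' hw', hsym w' w] at h1
    have h3 : (2 : F) * B w w' = 0 := by linear_combination h1
    rcases mul_eq_zero.mp h3 with h | h
    · exact absurd h h2
    · exact h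
  apply hw0
  apply hnd
  intro v
  obtain ⟨v', s, hv, hv', hs⟩ := hproj v
  rw [hv, map_add, hs w0 hw0c, hvan w0 v' hw0c hv', add_zero]

/-- **[PEEL]** -/
theorem pkgPeel : PkgPeel.{u} := by
  intro F _ _ hodd ι _ _ Q hQ d hcard U₀ hU₀ hdim a α ha hα
  classical
  have h2 := two_ne_zero_of_odd_card' hodd
  obtain ⟨Qf, hQc, hQnd⟩ := exists_qf_of_geo hQ
  have hpol : ∀ x y, QuadraticMap.polarBilin Qf x y = QuadraticMap.polar Q x y := by
    intro x y
    rw [QuadraticMap.polarBilin_apply_apply, hQc]
  have hA : ∀ v, Matrix.toLin' α (Matrix.toLin' α v) = a • v := by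
    intro v
    rw [Matrix.toLin'_apply, Matrix.toLin'_apply, Matrix.mulVec_mulVec, hα.1, Matrix.smul_mulVec,
      Matrix.one_mulVec]
  have hsa : ∀ x y, QuadraticMap.polarBilin Qf (Matrix.toLin' α x) y =
      QuadraticMap.polarBilin Qf x (Matrix.toLin' α y) := by
    intro x y
    rw [hpol, hpol, Matrix.toLin'_apply, Matrix.toLin'_apply]
    exact hα.2 x y
  have hU₀ts : ∀ v ∈ U₀, Qf v = 0 := by
    intro v hv
    rw [hQc]
    exact hU₀ v hv
  have hsym : ∀ v w, QuadraticMap.polarBilin Qf v w = QuadraticMap.polarBilin Qf w v := by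
    intro v w
    rw [QuadraticMap.polarBilin_apply_apply, QuadraticMap.polarBilin_apply_apply,
      QuadraticMap.polar_comm]
  rcases Nat.eq_zero_or_pos d with hd0 | hdpos
  · subst hd0
    exact ⟨fun j => j.elim0, fun j => j.elim0, fun j => j.elim0, fun j => j.elim0⟩
  obtain ⟨k, rfl⟩ : ∃ k, d = k + 1 := ⟨d - 1, by omega⟩
  obtain ⟨u, hu1, hu2⟩ := Cfsg.Agent.Lib.Helper11.OFX.exists_frame Qf h2 hQnd a ha
    (Matrix.toLin' α) hA hsa U₀ hU₀ts k (by omega)
  have hfin : 2 * k < Module.finrank F (ι → F) := by
    rw [Module.finrank_pi, hcard]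
    omega
  obtain ⟨w, hw1, hw2⟩ := exists_last (QuadraticMap.polarBilin Qf) hsym
    (fun v hv => hQnd.1 v hv) h2 a
    (Matrix.toLin' α) hA hsa k hfin u hu1 hu2
  -- the frame
  refine ⟨fun j => if h : (j : ℕ) < k then u ⟨j, h⟩ else w, ?_, ?_, ?_⟩
  · intro j l hjl
    by_cases hj : (j : ℕ) < k
    · by_cases hl : (l : ℕ) < k
      · simp only [dif_pos hj, dif_pos hl]
        refine ⟨?_, ?_⟩
        · rw [← hpol]
          exact hu1 _ _
        · rw [← hpol, ← Matrix.toLin'_apply, hu2, if_neg]
          intro h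
          apply hjl
          apply Fin.ext
          exact Fin.mk.inj_iff.mp h
      · simp only [dif_pos hj, dif_neg hl]
        refine ⟨?_, ?_⟩
        · rw [← hpol, hsym]
          exact (hw1 _).1
        · rw [← hpol, ← Matrix.toLin'_apply, hsym]
          exact (hw1 _).2
    · by_cases hl : (l : ℕ) < k
      · simp only [dif_neg hj, dif_pos hl]
        refine ⟨?_, ?_⟩
        · rw [← hpol]
          exact (hw1 _).1
        · rw [← hpol, ← Matrix.toLin'_apply, hsa]
          exact (hw1 _).2
      · exfalso
        apply hjl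
        apply Fin.ext
        have := j.isLt
        have := l.isLt
        omega
  · intro j
    by_cases hj : (j : ℕ) < k
    · right
      simp only [dif_pos hj]
      rw [← hpol, ← Matrix.toLin'_apply, hu2, if_pos rfl]
      exact one_ne_zero
    · left
      simp only [dif_neg hj]
      rw [← hpol]
      exact hw2
  · intro j hj
    have hj' : (j : ℕ) < k := by omega
    simp only [dif_pos hj']
    refine ⟨?_, ?_⟩
    · rw [← hpol]
      exact hu1 _ _
    · rw [← hpol, ← Matrix.toLin'_apply, hu2, if_pos rfl]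

end Cfsg.Agent.Lib.Helper92.OFM
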