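import Mathlib
import Cfsg.Agent.Lib.Helper74.OFM.Defs
import Cfsg.Agent.Lib.Helper11.OFX.Frame
import Cfsg.Agent.Lib.Helper92.OFM.Peel

/-!
# OFM (S5978): package `[CONJ]`

Any two self-adjoint `α`, `α'` with `α² = a = α'²` (`a` a non-square) on a nondegenerate quadratic
space of dimension `2 d` with a totally singular subspace of dimension `≥ d - 1` are conjugate
under the isometry group.

Both structures have frames `u j`, `α (u j)` (`j < d - 1`), `w`, `α w` which are bases with Gram
matrix `fromBlocks (fromBlocks 0 1 1 0) 0 0 !![e, f; f, a e]`; comparing determinants,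
`f'² - a e'² = δ² (f² - a e²)`, so `(f + e √a) / (f' + e' √a)` is a square `(x + y √a)²` of
`F(√a)`; replacing `w'` by `(x + y α') w'` makes the two Gram matrices equal, and the linear map
taking one basis to the other is the isometry.
-/

set_option autoImplicit false

namespace Cfsg.Agent.Lib.Helper92.OFM

open Matrix Cfsg.Agent.Lib.Helper74.OFM

universe u

section arith

variable {F : Type u} [Field F] [Fintype F]

/-- A non-square is `a` times a square (`a` a fixed non-square). -/
theorem eq_mul_sq_of_not_isSquare {a c : F} (ha : ¬ IsSquare a) (hc : ¬ IsSquare c) :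
    ∃ y : F, c = a * (y * y) := by
  classical
  have ha0 : a ≠ 0 := by
    rintro rfl
    exact ha ⟨0, by ring⟩
  have hc0 : c ≠ 0 := by
    rintro rfl
    exact hc ⟨0, by ring⟩
  have h1 : IsSquare (c * a) := by
    rw [← quadraticChar_one_iff_isSquare (mul_ne_zero hc0 ha0), map_mul]
    have hca : quadraticChar F c = -1 := by
      rcases quadraticChar_dichotomy hc0 with h | h
      · exact absurd ((quadraticChar_one_iff_isSquare hc0).mp h) hc
      · exact h
    have haa : quadraticChar F a = -1 := by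
      rcases quadraticChar_dichotomy ha0 with h | h
      · exact absurd ((quadraticChar_one_iff_isSquare ha0).mp h) ha
      · exact h
    rw [hca, haa]
    decide
  obtain ⟨z, hz⟩ := h1
  refine ⟨z / a, ?_⟩
  field_simp
  linear_combination hz

/-- Square roots in `F(√a)`: an element `s + t √a` whose norm is a nonzero square of `F` is a
square `(x + y √a)²`. -/
theorem exists_sqrt_aux (h2 : (2 : F) ≠ 0) (a : F) (ha : ¬ IsSquare a) (s t m : F)
    (hsm : s + m ≠ 0) (hst : s ^ 2 - a * t ^ 2 = m ^ 2) :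
    ∃ x y : F, x ^ 2 + a * y ^ 2 = s ∧ 2 * x * y = t := by
  have ha0 : a ≠ 0 := by
    rintro rfl
    exact ha ⟨0, by ring⟩
  have hA0 : (s + m) / 2 ≠ 0 := div_ne_zero hsm h2
  by_cases hsq : IsSquare ((s + m) / 2)
  · obtain ⟨x, hx⟩ := hsq
    have hx0 : x ≠ 0 := by
      rintro rfl
      apply hA0
      rw [hx]
      ring
    have hx' : 2 * x ^ 2 = s + m := by
      have : (s + m) / 2 * 2 = s + m := by field_simp
      rw [hx] at this
      linear_combination this
    refine ⟨x, t / (2 * x), ?_, ?_⟩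
    · have h4 : (2 * x) ≠ 0 := mul_ne_zero h2 hx0
      have hk : (x ^ 2 + a * (t / (2 * x)) ^ 2 - s) * (2 * x) ^ 2 = 0 := by
        have : (t / (2 * x)) ^ 2 * (2 * x) ^ 2 = t ^ 2 := by
          rw [← mul_pow, div_mul_cancel₀ _ h4]
        linear_combination a * this + (2 * x ^ 2 + m - s) * hx' - hst
      rcases mul_eq_zero.mp hk with h | h
      · linear_combination h
      · exact absurd (pow_eq_zero_iff (two_ne_zero) |>.mp h) h4
    · field_simp
  · obtain ⟨y, hy⟩ := eq_mul_sq_of_not_isSquare ha hsq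
    have hy0 : y ≠ 0 := by
      rintro rfl
      apply hA0
      rw [hy]
      ring
    have hy' : 2 * a * y ^ 2 = s + m := by
      have : (s + m) / 2 * 2 = s + m := by field_simp
      rw [hy] at this
      linear_combination this
    refine ⟨t / (2 * y), y, ?_, ?_⟩
    · have h4 : (2 * y) ≠ 0 := mul_ne_zero h2 hy0
      have hk : a * (((t / (2 * y)) ^ 2 + a * y ^ 2 - s) * (2 * y) ^ 2) = 0 := by
        have : (t / (2 * y)) ^ 2 * (2 * y) ^ 2 = t ^ 2 := by
          rw [← mul_pow, div_mul_cancel₀ _ h4]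
        linear_combination a * this + (2 * a * y ^ 2 + m - s) * hy' - hst
      rcases mul_eq_zero.mp hk with h | h
      · exact absurd h ha0
      · rcases mul_eq_zero.mp h with h | h
        · linear_combination h
        · exact absurd (pow_eq_zero_iff (two_ne_zero) |>.mp h) h4
    · field_simp

theorem exists_sqrt (h2 : (2 : F) ≠ 0) (a : F) (ha : ¬ IsSquare a) (s t m : F)
    (hm : m ≠ 0) (hst : s ^ 2 - a * t ^ 2 = m ^ 2) :
    ∃ x y : F, x ^ 2 + a * y ^ 2 = s ∧ 2 * x * y = t := by
  by_cases hsm : s + m = 0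
  · apply exists_sqrt_aux h2 a ha s t (-m)
    · intro h
      have : (2 : F) * m = 0 := by linear_combination hsm - h
      rcases mul_eq_zero.mp this with h' | h'
      · exact h2 h'
      · exact hm h'
    · rw [hst]
      ring
  · exact exists_sqrt_aux h2 a ha s t m hsm hst

end arith

section gram

variable {F : Type u} [Field F]

/-- The index type of a frame basis. -/
abbrev FI (k : ℕ) : Type := (Fin k ⊕ Fin k) ⊕ Fin 2

/-- The Gram matrix of a frame. -/
def gramStd (k : ℕ) (a e f : F) : Matrix (FI k) (FI k) F :=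
  Matrix.fromBlocks (Matrix.fromBlocks 0 1 1 0) 0 0 !![e, f; f, a * e]

/-- The determinant of the hyperbolic part. -/
def hypDet (F : Type u) [Field F] (k : ℕ) : F :=
  (Matrix.fromBlocks 0 1 1 0 : Matrix (Fin k ⊕ Fin k) (Fin k ⊕ Fin k) F).det

theorem hypDet_ne_zero (k : ℕ) : hypDet F k ≠ 0 := by
  intro h
  have h1 : (Matrix.fromBlocks 0 1 1 0 : Matrix (Fin k ⊕ Fin k) (Fin k ⊕ Fin k) F) *
      Matrix.fromBlocks 0 1 1 0 = 1 := by
    rw [Matrix.fromBlocks_multiply]
    simp [Matrix.fromBlocks_one]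
  have h3 := congrArg Matrix.det h1
  rw [Matrix.det_mul, Matrix.det_one] at h3
  unfold hypDet at h
  rw [h, zero_mul] at h3
  exact zero_ne_one h3

theorem gramStd_det (k : ℕ) (a e f : F) :
    (gramStd k a e f).det = hypDet F k * (a * e * e - f * f) := by
  unfold gramStd hypDet
  rw [Matrix.det_fromBlocks_zero₂₁, Matrix.det_fin_two_of]
  ring

variable {V : Type u} [AddCommGroup V] [Module F V]

/-- The frame family `u j | A (u j) | w, A w`. -/
def fam {k : ℕ} (A : V →ₗ[F] V) (u : Fin k → V) (w : V) : FI k → V :=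
  Sum.elim (Sum.elim u (fun j => A (u j))) ![w, A w]

theorem gram_fam (B : LinearMap.BilinForm F V) (hsym : ∀ v w, B v w = B w v) (a : F)
    (A : V →ₗ[F] V) (hA : ∀ v, A (A v) = a • v) (hsa : ∀ u v, B (A u) v = B u (A v))
    (k : ℕ) (u : Fin k → V) (hu1 : ∀ j l, B (u j) (u l) = 0)
    (hu2 : ∀ j l, B (A (u j)) (u l) = if j = l then 1 else 0)
    (w : V) (hw : ∀ j, B w (u j) = 0 ∧ B w (A (u j)) = 0) (i j : FI k) :
    B (fam A u w i) (fam A u w j) = gramStd k a (B w w) (B (A w) w) i j := by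
  have hAA : ∀ x y, B (A x) (A y) = a * B x y := by
    intro x y
    rw [hsa, hA, map_smul, smul_eq_mul]
  rcases i with (i | i) | i <;> rcases j with (j | j) | j
  · simp [fam, gramStd, hu1]
  · simp only [fam, gramStd, Sum.elim_inl, Sum.elim_inr, Matrix.fromBlocks_apply₁₁,
      Matrix.fromBlocks_apply₁₂, Matrix.one_apply]
    rw [hsym, hu2]
    by_cases h : i = j
    · rw [if_pos h, if_pos h.symm]
    · rw [if_neg h, if_neg (Ne.symm h)]
  · have h0 : B (u i) w = 0 := by rw [hsym]; exact (hw i).1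
    have h1 : B (u i) (A w) = 0 := by rw [← hsa, hsym]; exact (hw i).2
    fin_cases j <;> simp [fam, gramStd, h0, h1]
  · simp only [fam, gramStd, Sum.elim_inl, Sum.elim_inr, Matrix.fromBlocks_apply₁₁,
      Matrix.fromBlocks_apply₂₁, Matrix.one_apply]
    rw [hu2]
  · simp [fam, gramStd, hAA, hu1]
  · have h0 : B (A (u i)) w = 0 := by rw [hsym]; exact (hw i).2
    have h1 : B (A (u i)) (A w) = 0 := by rw [hAA, hsym, (hw i).1, mul_zero]
    fin_cases j <;> simp [fam, gramStd, h0, h1]
  · have h0 : B w (u j) = 0 := (hw j).1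
    have h1 : B (A w) (u j) = 0 := by rw [hsa]; exact (hw j).2
    fin_cases i <;> simp [fam, gramStd, h0, h1]
  · have h0 : B w (A (u j)) = 0 := (hw j).2
    have h1 : B (A w) (A (u j)) = 0 := by rw [hAA, (hw j).1, mul_zero]
    fin_cases i <;> simp [fam, gramStd, h0, h1]
  · have h1 : B w (A w) = B (A w) w := hsym _ _
    fin_cases i <;> fin_cases j <;> simp [fam, gramStd, h1, hAA]

/-- A family with invertible Gram matrix is linearly independent. -/
theorem li_of_gram {κ : Type} [Fintype κ] [DecidableEq κ] (B : LinearMap.BilinForm F V)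
    (v : κ → V) (G : Matrix κ κ F) (hG : ∀ i j, B (v i) (v j) = G i j) (hdet : G.det ≠ 0) :
    LinearIndependent F v := by
  rw [Fintype.linearIndependent_iff]
  intro c hc
  have h : c ᵥ* G = 0 := by
    ext j
    have h1 : B (∑ i, c i • v i) (v j) = 0 := by
      rw [hc, map_zero, LinearMap.zero_apply]
    rw [map_sum, LinearMap.sum_apply] at h1
    simp only [map_smul, LinearMap.smul_apply, smul_eq_mul, hG] at h1
    rw [Pi.zero_apply, ← h1]
    rfl
  have h3 := Matrix.eq_zero_of_vecMul_eq_zero hdet h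
  intro i
  exact congrFun h3 i

end gram

section conj

variable {F : Type u} [Field F] [Fintype F] {V : Type u} [AddCommGroup V] [Module F V]
  [FiniteDimensional F V]

omit [Fintype F] in
theorem norm_ne_zero_of_not_isSquare {a e f : F} (ha : ¬ IsSquare a) (he : e ≠ 0) :
    a * e * e - f * f ≠ 0 := by
  intro h
  apply ha
  refine ⟨f / e, ?_⟩
  field_simp
  linear_combination h

omit [Fintype F] in
/-- Two frames with the same invariants `(e, f)` are related by an isometry intertwining the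
structures. -/
theorem exists_equiv_of_frames (B : LinearMap.BilinForm F V) (hsym : ∀ v w, B v w = B w v)
    (a : F) (ha : ¬ IsSquare a)
    (A A' : V →ₗ[F] V) (hA : ∀ v, A (A v) = a • v) (hsa : ∀ u v, B (A u) v = B u (A v))
    (hA' : ∀ v, A' (A' v) = a • v) (hsa' : ∀ u v, B (A' u) v = B u (A' v))
    (k : ℕ) (hdim : Module.finrank F V = 2 * k + 2) (u u' : Fin k → V)
    (hu1 : ∀ j l, B (u j) (u l) = 0)
    (hu2 : ∀ j l, B (A (u j)) (u l) = if j = l then 1 else 0)
    (hu1' : ∀ j l, B (u' j) (u' l) = 0)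
    (hu2' : ∀ j l, B (A' (u' j)) (u' l) = if j = l then 1 else 0)
    (w w' : V) (hw : ∀ j, B w (u j) = 0 ∧ B w (A (u j)) = 0)
    (hw' : ∀ j, B w' (u' j) = 0 ∧ B w' (A' (u' j)) = 0)
    (he : B w' w' = B w w) (hf : B (A' w') w' = B (A w) w) (hne : B w w ≠ 0) :
    ∃ g : V ≃ₗ[F] V, (∀ x y, B (g x) (g y) = B x y) ∧ ∀ x, A' (g x) = g (A x) := by
  classical
  have hdet : (gramStd k a (B w w) (B (A w) w)).det ≠ 0 := by
    rw [gramStd_det]
    exact mul_ne_zero (hypDet_ne_zero k) (norm_ne_zero_of_not_isSquare ha hne)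
  have hcard : Fintype.card (FI k) = Module.finrank F V := by
    rw [hdim, Fintype.card_sum, Fintype.card_sum, Fintype.card_fin, Fintype.card_fin]
    omega
  have hG : ∀ i j, B (fam A u w i) (fam A u w j) = gramStd k a (B w w) (B (A w) w) i j :=
    gram_fam B hsym a A hA hsa k u hu1 hu2 w hw
  have hG' : ∀ i j, B (fam A' u' w' i) (fam A' u' w' j) =
      gramStd k a (B w w) (B (A w) w) i j := by
    intro i j
    rw [gram_fam B hsym a A' hA' hsa' k u' hu1' hu2' w' hw' i j, he, hf]
  have hli := li_of_gram B (fam A u w) _ hG hdet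
  have hli' := li_of_gram B (fam A' u' w') _ hG' hdet
  obtain ⟨b, hb⟩ : ∃ b : Module.Basis (FI k) F V, ⇑b = fam A u w :=
    ⟨basisOfLinearIndependentOfCardEqFinrank' (K := F) _ hli hcard,
      coe_basisOfLinearIndependentOfCardEqFinrank' _ _ _⟩
  obtain ⟨b', hb'⟩ : ∃ b' : Module.Basis (FI k) F V, ⇑b' = fam A' u' w' :=
    ⟨basisOfLinearIndependentOfCardEqFinrank' (K := F) _ hli' hcard,
      coe_basisOfLinearIndependentOfCardEqFinrank' _ _ _⟩
  obtain ⟨g, hg⟩ : ∃ g : V ≃ₗ[F] V, g = b.equiv b' (Equiv.refl _) := ⟨_, rfl⟩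
  have hgb : ∀ i, g (b i) = b' i := by
    intro i
    rw [hg, Module.Basis.equiv_apply, Equiv.refl_apply]
  refine ⟨g, ?_, ?_⟩
  · intro x y
    have h : B.compl₁₂ (g : V →ₗ[F] V) (g : V →ₗ[F] V) = B := by
      apply LinearMap.BilinForm.ext_basis b
      intro i j
      rw [LinearMap.compl₁₂_apply, LinearEquiv.coe_coe, hgb, hgb, hb, hb', hG, hG']
    have h3 := LinearMap.congr_fun₂ h x y
    rw [LinearMap.compl₁₂_apply] at h3
    exact h3
  · intro x
    have h : A' ∘ₗ (g : V →ₗ[F] V) = (g : V →ₗ[F] V) ∘ₗ A := by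
      apply b.ext
      intro i
      rw [LinearMap.comp_apply, LinearMap.comp_apply, LinearEquiv.coe_coe, hgb]
      rcases i with (i | i) | i
      · have h1 : A (b (Sum.inl (Sum.inl i))) = b (Sum.inl (Sum.inr i)) := by
          rw [hb]
          rfl
        rw [h1, hgb, hb']
        rfl
      · have h1 : A (b (Sum.inl (Sum.inr i))) = a • b (Sum.inl (Sum.inl i)) := by
          rw [hb]
          exact hA _
        rw [h1, map_smul, hgb, hb']
        exact hA' _
      · have h0 : ∀ i : Fin 2, i = 0 ∨ i = 1 := by decide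
        rcases h0 i with rfl | rfl
        · have h1 : A (b (Sum.inr 0)) = b (Sum.inr 1) := by
            rw [hb]
            rfl
          rw [h1, hgb, hb']
          rfl
        · have h1 : A (b (Sum.inr 1)) = a • b (Sum.inr 0) := by
            rw [hb]
            exact hA _
          rw [h1, map_smul, hgb, hb']
          exact hA' _
    exact LinearMap.congr_fun h x

/-- Conjugacy of two structures, abstract form: frames `u`, `u'` of length `k` in a space of
dimension `2 k + 2`. -/
theorem conj_abstract (B : LinearMap.BilinForm F V) (hsym : ∀ v w, B v w = B w v)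
    (hnd : ∀ v, (∀ w, B v w = 0) → v = 0) (h2 : (2 : F) ≠ 0)
    (a : F) (ha : ¬ IsSquare a)
    (A A' : V →ₗ[F] V) (hA : ∀ v, A (A v) = a • v) (hsa : ∀ u v, B (A u) v = B u (A v))
    (hA' : ∀ v, A' (A' v) = a • v) (hsa' : ∀ u v, B (A' u) v = B u (A' v))
    (k : ℕ) (hdim : Module.finrank F V = 2 * k + 2) (u u' : Fin k → V)
    (hu1 : ∀ j l, B (u j) (u l) = 0)
    (hu2 : ∀ j l, B (A (u j)) (u l) = if j = l then 1 else 0)
    (hu1' : ∀ j l, B (u' j) (u' l) = 0)
    (hu2' : ∀ j l, B (A' (u' j)) (u' l) = if j = l then 1 else 0) :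
    ∃ g : V ≃ₗ[F] V, (∀ x y, B (g x) (g y) = B x y) ∧ ∀ x, A' (g x) = g (A x) := by
  classical
  obtain ⟨w, hw, hwne⟩ := exists_last B hsym hnd h2 a A hA hsa k (by omega) u hu1 hu2
  obtain ⟨w', hw', hwne'⟩ := exists_last B hsym hnd h2 a A' hA' hsa' k (by omega) u' hu1' hu2'
  obtain ⟨e, he⟩ : ∃ e, e = B w w := ⟨_, rfl⟩
  obtain ⟨f, hf⟩ : ∃ f, f = B (A w) w := ⟨_, rfl⟩
  obtain ⟨e', he'⟩ : ∃ e', e' = B w' w' := ⟨_, rfl⟩
  obtain ⟨f', hf'⟩ : ∃ f', f' = B (A' w') w' := ⟨_, rfl⟩
  have he0 : e ≠ 0 := by rw [he]; exact hwne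
  have he0' : e' ≠ 0 := by rw [he']; exact hwne'
  have hN : a * e * e - f * f ≠ 0 := norm_ne_zero_of_not_isSquare ha he0
  have hN' : a * e' * e' - f' * f' ≠ 0 := norm_ne_zero_of_not_isSquare ha he0'
  have hdetG : (gramStd k a e f).det ≠ 0 := by
    rw [gramStd_det]
    exact mul_ne_zero (hypDet_ne_zero k) hN
  have hdetG' : (gramStd k a e' f').det ≠ 0 := by
    rw [gramStd_det]
    exact mul_ne_zero (hypDet_ne_zero k) hN'
  have hcard : Fintype.card (FI k) = Module.finrank F V := by
    rw [hdim, Fintype.card_sum, Fintype.card_sum, Fintype.card_fin, Fintype.card_fin]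
    omega
  have hG : ∀ i j, B (fam A u w i) (fam A u w j) = gramStd k a e f i j := by
    intro i j
    rw [he, hf]
    exact gram_fam B hsym a A hA hsa k u hu1 hu2 w hw i j
  have hG' : ∀ i j, B (fam A' u' w' i) (fam A' u' w' j) = gramStd k a e' f' i j := by
    intro i j
    rw [he', hf']
    exact gram_fam B hsym a A' hA' hsa' k u' hu1' hu2' w' hw' i j
  have hli := li_of_gram B (fam A u w) _ hG hdetG
  have hli' := li_of_gram B (fam A' u' w') _ hG' hdetG'
  obtain ⟨b, hb⟩ : ∃ b : Module.Basis (FI k) F V, ⇑b = fam A u w :=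
    ⟨basisOfLinearIndependentOfCardEqFinrank' (K := F) _ hli hcard,
      coe_basisOfLinearIndependentOfCardEqFinrank' _ _ _⟩
  obtain ⟨b', hb'⟩ : ∃ b' : Module.Basis (FI k) F V, ⇑b' = fam A' u' w' :=
    ⟨basisOfLinearIndependentOfCardEqFinrank' (K := F) _ hli' hcard,
      coe_basisOfLinearIndependentOfCardEqFinrank' _ _ _⟩
  -- the determinant relation
  have hM : (b.toMatrix b')ᵀ * LinearMap.BilinForm.toMatrix b B * b.toMatrix b' =
      LinearMap.BilinForm.toMatrix b' B :=
    LinearMap.BilinForm.toMatrix_mul_basis_toMatrix b b' B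
  have hGb : LinearMap.BilinForm.toMatrix b B = gramStd k a e f := by
    ext i j
    rw [LinearMap.BilinForm.toMatrix_apply, hb]
    exact hG i j
  have hGb' : LinearMap.BilinForm.toMatrix b' B = gramStd k a e' f' := by
    ext i j
    rw [LinearMap.BilinForm.toMatrix_apply, hb']
    exact hG' i j
  rw [hGb, hGb'] at hM
  have hdet := congrArg Matrix.det hM
  rw [Matrix.det_mul, Matrix.det_mul, Matrix.det_transpose, gramStd_det, gramStd_det] at hdet
  obtain ⟨δ, hδ⟩ : ∃ δ, δ = (b.toMatrix b').det := ⟨_, rfl⟩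
  rw [← hδ] at hdet
  have hrel : f' * f' - a * e' * e' = δ * δ * (f * f - a * e * e) := by
    have h0 := hypDet_ne_zero (F := F) k
    apply mul_left_cancel₀ h0
    linear_combination hdet
  have hδ0 : δ ≠ 0 := by
    intro h
    rw [h] at hrel
    apply hN'
    linear_combination -hrel
  obtain ⟨D, hD⟩ : ∃ D, D = f * f - a * e * e := ⟨_, rfl⟩
  obtain ⟨D', hD'⟩ : ∃ D', D' = f' * f' - a * e' * e' := ⟨_, rfl⟩
  have hD0 : D ≠ 0 := by
    intro h
    apply hN
    rw [hD] at h
    linear_combination -h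
  have hD0' : D' ≠ 0 := by
    intro h
    apply hN'
    rw [hD'] at h
    linear_combination -h
  have hrelD : D' = δ * δ * D := by
    rw [hD, hD']
    exact hrel
  -- the square root
  have hst : ((f * f' - a * e * e') / D') ^ 2 - a * ((e * f' - f * e') / D') ^ 2 =
      (δ⁻¹) ^ 2 := by
    have h1 : ((f * f' - a * e * e') / D') ^ 2 - a * ((e * f' - f * e') / D') ^ 2 = D / D' := by
      rw [div_pow, div_pow, ← mul_div_assoc, ← sub_div, div_eq_div_iff (pow_ne_zero 2 hD0') hD0',
        hD, hD']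
      ring
    rw [h1, hrelD]
    field_simp
  obtain ⟨x, y, hxy1, hxy2⟩ := exists_sqrt h2 a ha _ _ (δ⁻¹) (inv_ne_zero hδ0) hst
  have hs1 : ((f * f' - a * e * e') / D') * e' + ((e * f' - f * e') / D') * f' = e := by
    rw [div_mul_eq_mul_div, div_mul_eq_mul_div, ← add_div, div_eq_iff hD0', hD']
    ring
  have hs2 : ((f * f' - a * e * e') / D') * f' + ((e * f' - f * e') / D') * (a * e') = f := by
    rw [div_mul_eq_mul_div, div_mul_eq_mul_div, ← add_div, div_eq_iff hD0', hD']
    ring
  -- the corrected last vector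
  have hB1 : B w' (A' w') = f' := by rw [hsym, hf']
  have hB2 : B (A' w') (A' w') = a * e' := by rw [hsa', hA', map_smul, smul_eq_mul, he']
  have hw'' : ∀ j, B (x • w' + y • A' w') (u' j) = 0 ∧
      B (x • w' + y • A' w') (A' (u' j)) = 0 := by
    intro j
    have h3 : B (A' w') (u' j) = 0 := by rw [hsa']; exact (hw' j).2
    have h4 : B (A' w') (A' (u' j)) = 0 := by
      rw [hsa', hA', map_smul, (hw' j).1, smul_zero]
    constructor
    · rw [map_add, map_smul, map_smul, LinearMap.add_apply, LinearMap.smul_apply,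
        LinearMap.smul_apply, (hw' j).1, h3, smul_zero, smul_zero, add_zero]
    · rw [map_add, map_smul, map_smul, LinearMap.add_apply, LinearMap.smul_apply,
        LinearMap.smul_apply, (hw' j).2, h4, smul_zero, smul_zero, add_zero]
  have he'' : B (x • w' + y • A' w') (x • w' + y • A' w') = B w w := by
    simp only [map_add, map_smul, LinearMap.add_apply, LinearMap.smul_apply, smul_eq_mul]
    rw [hB1, hB2, ← he', ← hf', ← he]
    linear_combination e' * hxy1 + f' * hxy2 + hs1
  have hf'' : B (A' (x • w' + y • A' w')) (x • w' + y • A' w') = B (A w) w := by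
    simp only [map_add, map_smul, LinearMap.add_apply, LinearMap.smul_apply, smul_eq_mul, hA']
    rw [hB1, hB2, ← he', ← hf', ← hf]
    linear_combination f' * hxy1 + a * e' * hxy2 + hs2
  exact exists_equiv_of_frames B hsym a ha A A' hA hsa hA' hsa' k hdim u u' hu1 hu2 hu1' hu2'
    w (x • w' + y • A' w') hw hw'' he'' hf'' hwne

end conj

/-- Conjugacy of the structures (the conclusion `Conj`, unconditionally). -/
theorem conj : Conj.{u} := by
  intro F _ _ hodd ι _ _ Q hQ d hcard U₀ hU₀ hdim a α α' ha hα hα'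
  classical
  have h2 := two_ne_zero_of_odd_card' hodd
  obtain ⟨Qf, hQc, hQnd⟩ := exists_qf_of_geo hQ
  have hpol : ∀ x y, QuadraticMap.polarBilin Qf x y = QuadraticMap.polar Q x y := by
    intro x y
    rw [QuadraticMap.polarBilin_apply_apply, hQc]
  have hA : ∀ v, Matrix.toLin' α (Matrix.toLin' α v) = a • v := by
    intro v
    rw [Matrix.toLin'_apply, Matrix.toLin'_apply, Matrix.mulVec_mulVec, hα.1, Matrix.smul_mulVec,
      Matrix.one_mulVec]
  have hsa : ∀ x y, QuadraticMap.polarBilin Qf (Matrix.toLin' α x) y =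
      QuadraticMap.polarBilin Qf x (Matrix.toLin' α y) := by
    intro x y
    rw [hpol, hpol, Matrix.toLin'_apply, Matrix.toLin'_apply]
    exact hα.2 x y
  have hA' : ∀ v, Matrix.toLin' α' (Matrix.toLin' α' v) = a • v := by
    intro v
    rw [Matrix.toLin'_apply, Matrix.toLin'_apply, Matrix.mulVec_mulVec, hα'.1,
      Matrix.smul_mulVec, Matrix.one_mulVec]
  have hsa' : ∀ x y, QuadraticMap.polarBilin Qf (Matrix.toLin' α' x) y =
      QuadraticMap.polarBilin Qf x (Matrix.toLin' α' y) := by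
    intro x y
    rw [hpol, hpol, Matrix.toLin'_apply, Matrix.toLin'_apply]
    exact hα'.2 x y
  have hU₀ts : ∀ v ∈ U₀, Qf v = 0 := by
    intro v hv
    rw [hQc]
    exact hU₀ v hv
  have hsym : ∀ v w, QuadraticMap.polarBilin Qf v w = QuadraticMap.polarBilin Qf w v := by
    intro v w
    rw [QuadraticMap.polarBilin_apply_apply, QuadraticMap.polarBilin_apply_apply,
      QuadraticMap.polar_comm]
  have hBself : ∀ v, QuadraticMap.polarBilin Qf v v = 2 * Q v := by
    intro v
    rw [QuadraticMap.polarBilin_apply_apply, QuadraticMap.polar, ← two_smul F v,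
      QuadraticMap.map_smul, smul_eq_mul, hQc]
    ring
  rcases Nat.eq_zero_or_pos d with hd0 | hdpos
  · subst hd0
    haveI : IsEmpty ι := Fintype.card_eq_zero_iff.mp (by omega)
    exact ⟨1, Subgroup.one_mem _, Subsingleton.elim _ _⟩
  obtain ⟨k, rfl⟩ : ∃ k, d = k + 1 := ⟨d - 1, by omega⟩
  obtain ⟨u, hu1, hu2⟩ := Cfsg.Agent.Lib.Helper11.OFX.exists_frame Qf h2 hQnd a ha
    (Matrix.toLin' α) hA hsa U₀ hU₀ts k (by omega)
  obtain ⟨u', hu1', hu2'⟩ := Cfsg.Agent.Lib.Helper11.OFX.exists_frame Qf h2 hQnd a ha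
    (Matrix.toLin' α') hA' hsa' U₀ hU₀ts k (by omega)
  have hfin : Module.finrank F (ι → F) = 2 * k + 2 := by
    rw [Module.finrank_pi, hcard]
    ring
  obtain ⟨g, hg1, hg2⟩ := conj_abstract (QuadraticMap.polarBilin Qf) hsym
    (fun v hv => hQnd.1 v hv) h2 a ha (Matrix.toLin' α) (Matrix.toLin' α') hA hsa hA' hsa' k hfin
    u u' hu1 hu2 hu1' hu2'
  -- the matrix of `g`
  have hM1 : LinearMap.toMatrix' (g : (ι → F) →ₗ[F] (ι → F)) *
      LinearMap.toMatrix' (g.symm : (ι → F) →ₗ[F] (ι → F)) = 1 := by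
    rw [← LinearMap.toMatrix'_comp]
    have h : (g : (ι → F) →ₗ[F] (ι → F)) ∘ₗ (g.symm : (ι → F) →ₗ[F] (ι → F)) =
        LinearMap.id := by
      apply LinearMap.ext
      intro x
      simp
    rw [h, LinearMap.toMatrix'_id]
  have hM2 : LinearMap.toMatrix' (g.symm : (ι → F) →ₗ[F] (ι → F)) *
      LinearMap.toMatrix' (g : (ι → F) →ₗ[F] (ι → F)) = 1 := by
    rw [← LinearMap.toMatrix'_comp]
    have h : (g.symm : (ι → F) →ₗ[F] (ι → F)) ∘ₗ (g : (ι → F) →ₗ[F] (ι → F)) =
        LinearMap.id := by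
      apply LinearMap.ext
      intro x
      simp
    rw [h, LinearMap.toMatrix'_id]
  have hmv : ∀ x, LinearMap.toMatrix' (g : (ι → F) →ₗ[F] (ι → F)) *ᵥ x = g x := by
    intro x
    rw [← Matrix.toLin'_apply, Matrix.toLin'_toMatrix']
    rfl
  refine ⟨⟨LinearMap.toMatrix' (g : (ι → F) →ₗ[F] (ι → F)),
    LinearMap.toMatrix' (g.symm : (ι → F) →ₗ[F] (ι → F)), hM1, hM2⟩, ?_, ?_⟩
  · intro x _
    show Q (LinearMap.toMatrix' (g : (ι → F) →ₗ[F] (ι → F)) *ᵥ x) = Q x
    rw [hmv]
    have h := hg1 x x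
    rw [hBself, hBself] at h
    exact mul_left_cancel₀ h2 h
  · show α' * LinearMap.toMatrix' (g : (ι → F) →ₗ[F] (ι → F)) =
      LinearMap.toMatrix' (g : (ι → F) →ₗ[F] (ι → F)) * α
    apply Matrix.toLin'.injective
    apply LinearMap.ext
    intro x
    rw [Matrix.toLin'_apply, Matrix.toLin'_apply, ← Matrix.mulVec_mulVec, ← Matrix.mulVec_mulVec,
      hmv, hmv, ← Matrix.toLin'_apply α', ← Matrix.toLin'_apply α]
    exact hg2 x

/-- **[CONJ]** -/
theorem pkgConj : PkgConj.{u} := fun _ => conj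

end Cfsg.Agent.Lib.Helper92.OFM
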